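import Cfsg.Agent.Lib.Helper3.L211a.Main
import Cfsg.Agent.Lib.Helper3.A5u.Bd
import Cfsg.Agent.Lib.Helper3.MatL3
import Cfsg.Agent.Lib.Helper3.MatChk

set_option autoImplicit false
set_option maxRecDepth 100000

namespace Cfsg.Agent.Lib.Helper3.A5u

open Cfsg.Agent.Lib.Helper11 Cfsg.Agent.Lib.Helper3 MulAction

set_option maxHeartbeats 0

def MS1 : List ℕ := [0xa92e, 0xccb4, 0xf05c, 0xff00]
def MS2 : List ℕ := [0xa8ba, 0xcd70, 0xf262, 0xf90c]
def w1 : List ℕ := [1, 2, 1, 2, 1, 2, 2, 1, 2, 2, 1]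
def w2 : List ℕ := [2]

theorem ms1 : maskChk (ntOf ntl) 4 [1] MS1 = true := by decide +kernel
theorem ms2 : maskChk (ntOf ntl) 4 [2] MS2 = true := by decide +kernel
theorem mr1 : maskChk (ntOf L211a.ntl) 4 w1 MS1 = true := by decide +kernel
theorem mr2 : maskChk (ntOf L211a.ntl) 4 w2 MS2 = true := by decide +kernel

theorem eq_word (l : ℕ) (w : List ℕ) (MS : List ℕ) (h1 : maskChk (ntOf ntl) 4 [l] MS = true)
    (h2 : maskChk (ntOf L211a.ntl) 4 w MS = true) :
    vL ntl deg l = (w.map (vL L211a.ntl L211a.deg)).prod := by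
  ext i
  rw [setup.vL_eq_imgOf (by norm_num [deg]) l MS h1 i, vL_prod_apply L211a.setup.hst w i]
  exact (wordPerm_eq_imgOf _ 4 (ntOf_ok L211a.ntl _ L211a.setup.hok) w MS h2 i
    (lt_of_lt_of_le i.2 (by norm_num [deg]))).symm

theorem le : lgrp (vL ntl deg) [1, 2] ≤ lgrp (vL L211a.ntl L211a.deg) [1, 2] := by
  apply lgrp_le
  intro x hx
  simp only [List.mem_cons, List.mem_nil_iff, or_false] at hx
  rcases hx with rfl | rfl
  · rw [eq_word 1 w1 MS1 ms1 mr1]
    exact prod_mem_of_letters _ _ _ (fun l hl => L211a.okl l (by revert l; decide))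
  · rw [eq_word 2 w2 MS2 ms2 mr2]
    exact prod_mem_of_letters _ _ _ (fun l hl => L211a.okl l (by revert l; decide))

end Cfsg.Agent.Lib.Helper3.A5u
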